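import Mathlib

/-!
# Frobenius: the number of solutions of `x ^ n = c`
-/

set_option autoImplicit false

namespace Cfsg.Agent.H77.FrobEquation

open Finset

universe u

variable {G : Type u} [Group G] [Finite G]

/-- The `x` with `x ^ n` conjugate to `c`, and those with `x ^ n = c`. -/
theorem card_conj_fiber (c : G) (n : ℕ) :
    Nat.card {x : G // IsConj c (x ^ n)} = Nat.card {y : G // IsConj c y} * Nat.card {x : G // x ^ n = c} := by
  classical
  have : Fintype G := Fintype.ofFinite G
  let e : {x : G // IsConj c (x ^ n)} ≃ Σ y : {y : G // IsConj c y}, {x : G // x ^ n = y.1} :=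
    { toFun := fun x => ⟨⟨x.1 ^ n, x.2⟩, x.1, rfl⟩
      invFun := fun s => ⟨s.2.1, s.2.2.symm ▸ s.1.2⟩
      left_inv := fun x => rfl
      right_inv := by rintro ⟨⟨y, hy⟩, x, (hx : x ^ n = y)⟩; subst hx; rfl }
  have hconst : ∀ y : {y : G // IsConj c y}, Nat.card {x : G // x ^ n = y.1} = Nat.card {x : G // x ^ n = c} := by
    intro y
    obtain ⟨g, hg⟩ := isConj_iff.1 y.2
    refine (Nat.card_congr ((MulAut.conj g).toEquiv.subtypeEquiv fun x => ?_)).symm
    show x ^ n = c ↔ (g * x * g⁻¹) ^ n = y.1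
    rw [conj_pow, ← hg]
    simp
  rw [Nat.card_congr e, Nat.card_sigma, Finset.sum_congr rfl (fun y _ => hconst y), Finset.sum_const,
    Finset.card_univ, smul_eq_mul, Nat.card_eq_fintype_card (α := {y : G // IsConj c y})]

/-- A centralizer reduces to the central case. -/
theorem gcd_dvd_conj_fiber (c : G) (n : ℕ)
    (hcent : Nat.gcd n (Nat.card (Subgroup.centralizer ({c} : Set G))) ∣
      Nat.card {x : Subgroup.centralizer ({c} : Set G) // x ^ n =
        (⟨c, Subgroup.mem_centralizer_singleton_iff.2 rfl⟩ : Subgroup.centralizer ({c} : Set G))}) :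
    Nat.gcd (Nat.card {y : G // IsConj c y} * n) (Nat.card G) ∣ Nat.card {x : G // IsConj c (x ^ n)} := by
  set L := Subgroup.centralizer ({c} : Set G) with hL
  have hfix : Nat.card {x : G // x ^ n = c} = Nat.card {x : L // x ^ n =
      (⟨c, Subgroup.mem_centralizer_singleton_iff.2 rfl⟩ : L)} := by
    refine Nat.card_congr
      { toFun := fun x => ⟨⟨x.1, Subgroup.mem_centralizer_singleton_iff.2
          (by have h := (Commute.self_pow x.1 n).eq; rwa [x.2] at h)⟩, Subtype.ext x.2⟩
        invFun := fun x => ⟨x.1.1, congrArg Subtype.val x.2⟩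
        left_inv := fun x => rfl
        right_inv := fun x => rfl }
  have hG : Nat.card G = Nat.card {y : G // IsConj c y} * Nat.card L := by
    have h1 : Nat.card {y : G // IsConj c y} = (MulAction.orbit (ConjAct G) c).ncard := by
      rw [← Nat.card_coe_set_eq]
      refine Nat.card_congr (Equiv.subtypeEquivRight fun y => ?_)
      rw [ConjAct.mem_orbit_conjAct, isConj_comm]
    have h2 : Nat.card L = Nat.card (MulAction.stabilizer (ConjAct G) c) := by
      refine Nat.card_congr (ConjAct.toConjAct.toEquiv.subtypeEquiv fun x => ?_)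
      show x ∈ L ↔ ConjAct.toConjAct x ∈ MulAction.stabilizer (ConjAct G) c
      rw [MulAction.mem_stabilizer_iff, ConjAct.toConjAct_smul, hL, Subgroup.mem_centralizer_singleton_iff,
        mul_inv_eq_iff_eq_mul]
    rw [h1, h2, ← MulAction.index_stabilizer, mul_comm, Subgroup.card_mul_index]
    rfl
  rw [card_conj_fiber, hG, Nat.gcd_mul_left, hfix]
  exact Nat.mul_dvd_mul_left _ hcent

/-- Counting all `x` according to the class of `x ^ n`. -/
theorem sum_fibers [Fintype G] (n : ℕ) :
    ∑ y : G, Nat.card {x : G // x ^ n = y} = Nat.card G := by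
  classical
  rw [← Nat.card_sigma]
  exact Nat.card_congr (Equiv.sigmaFiberEquiv fun x : G => x ^ n)

/-- The solutions of `x ^ (p ^ a) = c`, when `p` divides the order of `c`, come in packets of `p ^ a`. -/
theorem pow_dvd_of_dvd_orderOf {p a : ℕ} (hp : p.Prime) {c : G} (hc : p ∣ orderOf c) :
    p ^ a ∣ Nat.card {x : G // x ^ p ^ a = c} := by
  classical
  have : Fintype G := Fintype.ofFinite G
  set s := orderOf c with hs
  have hs0 : 0 < s := orderOf_pos c
  have hord : ∀ x : G, x ^ p ^ a = c → orderOf x = p ^ a * s := by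
    intro x hx
    have h1 : orderOf x ∣ p ^ a * s := orderOf_dvd_of_pow_eq_one (by
      rw [pow_mul, hx, hs, pow_orderOf_eq_one])
    have h2 : s = orderOf x / Nat.gcd (orderOf x) (p ^ a) := by rw [hs, ← hx, orderOf_pow]
    obtain ⟨i, hi, hgcd⟩ := (Nat.dvd_prime_pow hp).1 (Nat.gcd_dvd_right (orderOf x) (p ^ a))
    rw [hgcd] at h2
    have h3 : orderOf x = p ^ i * s := by
      rw [h2, Nat.mul_div_cancel' (hgcd ▸ Nat.gcd_dvd_left _ _)]
    rcases lt_or_eq_of_le hi with hlt | rfl
    · exfalso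
      have h4 : p ^ (i + 1) ∣ Nat.gcd (orderOf x) (p ^ a) := Nat.dvd_gcd
        (by rw [h3, pow_succ]; exact Nat.mul_dvd_mul_left _ hc) (Nat.pow_dvd_pow p hlt)
      rw [hgcd, Nat.pow_dvd_pow_iff_le_right hp.one_lt] at h4
      omega
    · exact h3
  -- group the solutions by the subgroup they generate
  let S := {x : G // x ^ p ^ a = c}
  have hcount : ∀ x : S, Nat.card {y : S // Subgroup.zpowers y.1 = Subgroup.zpowers x.1} = p ^ a := by
    intro x
    have hox := hord x.1 x.2
    let f : Fin (p ^ a) → {y : S // Subgroup.zpowers y.1 = Subgroup.zpowers x.1} := fun j =>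
      ⟨⟨x.1 ^ (1 + s * j.1), by
        rw [← pow_mul, mul_comm, pow_mul, x.2, pow_add, pow_one, pow_mul, hs, pow_orderOf_eq_one,
          one_pow, mul_one]⟩, by
        apply Subgroup.eq_of_le_of_card_ge (Subgroup.zpowers_le.2 (pow_mem (Subgroup.mem_zpowers x.1) _))
        rw [Nat.card_zpowers, Nat.card_zpowers, hox, hord _ (by
          rw [← pow_mul, mul_comm, pow_mul, x.2, pow_add, pow_one, pow_mul, hs, pow_orderOf_eq_one,
            one_pow, mul_one])]⟩
    have hf : Function.Bijective f := by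
      constructor
      · intro j l hjl
        have h1 : x.1 ^ (1 + s * j.1) = x.1 ^ (1 + s * l.1) := congrArg (fun z => z.1.1) hjl
        rw [pow_eq_pow_iff_modEq, hox] at h1
        have h2 := Nat.ModEq.add_left_cancel' 1 h1
        rw [mul_comm (p ^ a)] at h2
        have h3 := Nat.ModEq.mul_left_cancel' hs0.ne' h2
        exact Fin.ext (h3.eq_of_lt_of_lt j.2 l.2)
      · rintro ⟨⟨y, hy⟩, hyz⟩
        obtain ⟨i, rfl⟩ : ∃ i : ℕ, x.1 ^ i = y :=
          (mem_powers_iff_mem_zpowers (x := x.1)).2 (hyz ▸ Subgroup.mem_zpowers y)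
        have h1 : c ^ i = c ^ 1 := by
          rw [pow_one]
          conv_lhs => rw [← x.2]
          rw [← pow_mul, mul_comm, pow_mul]; exact hy
        rw [pow_eq_pow_iff_modEq, ← hs] at h1
        -- `i = 1 + s j` modulo `p ^ a * s`
        have h2 : (s : ℤ) ∣ (i : ℤ) - 1 := Nat.modEq_iff_dvd.1 h1.symm
        obtain ⟨t, ht⟩ := h2
        have hq : (0 : ℤ) < ((p ^ a : ℕ) : ℤ) := by exact_mod_cast pow_pos hp.pos a
        refine ⟨⟨(t % ((p ^ a : ℕ) : ℤ)).toNat, ?_⟩, ?_⟩
        · have := Int.emod_lt_of_pos t hq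
          have := Int.emod_nonneg t hq.ne'
          omega
        · apply Subtype.ext
          apply Subtype.ext
          show x.1 ^ (1 + s * (t % ((p ^ a : ℕ) : ℤ)).toNat) = x.1 ^ i
          rw [pow_eq_pow_iff_modEq, hox, Nat.modEq_iff_dvd]
          push_cast
          rw [Int.toNat_of_nonneg (Int.emod_nonneg t (by exact_mod_cast hq.ne'))]
          push_cast
          refine ⟨t / (p : ℤ) ^ a, ?_⟩
          have := Int.emod_add_mul_ediv t ((p : ℤ) ^ a)
          linear_combination ht - (s : ℤ) * this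
    rw [← Nat.card_eq_of_bijective f hf, Nat.card_fin]
  have : Nat.card S = ∑ Z : Subgroup G, Nat.card {x : S // Subgroup.zpowers x.1 = Z} := by
    rw [← Nat.card_sigma]
    exact Nat.card_congr (Equiv.sigmaFiberEquiv fun x : S => Subgroup.zpowers x.1).symm
  rw [this]
  refine Finset.dvd_sum fun Z _ => ?_
  rcases isEmpty_or_nonempty {x : S // Subgroup.zpowers x.1 = Z} with he | ⟨⟨x, rfl⟩⟩
  · rw [Nat.card_of_isEmpty]; exact dvd_zero _
  · rw [hcount]

theorem gcd_dvd_fiber_of_smaller {p a : ℕ} (hp : p.Prime) (hpa : p ^ a ∣ Nat.card G)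
    (hsmall : ∀ y : G, y ∉ Subgroup.center G →
      p ^ a ∣ Nat.card {x : G // IsConj y (x ^ p ^ a)})
    {c : G} (hc : c ∈ Subgroup.center G) : p ^ a ∣ Nat.card {x : G // x ^ p ^ a = c} := by
  classical
  by_cases hpc : p ∣ orderOf c
  · exact pow_dvd_of_dvd_orderOf hp hpc
  have : Fintype G := Fintype.ofFinite G
  have hbij : ∀ d ∈ Subgroup.center G, ¬ p ∣ orderOf d →
      Nat.card {x : G // x ^ p ^ a = d} = Nat.card {x : G // x ^ p ^ a = 1} := by
    intro d hd hpd
    obtain ⟨u, v, huv⟩ := Nat.isCoprime_iff_coprime.2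
      ((hp.coprime_iff_not_dvd.2 hpd).pow_left a)
    set e := d ^ u with he
    have hec : e ∈ Subgroup.center G := zpow_mem hd u
    have hep : e ^ p ^ a = d := by
      rw [he, ← zpow_natCast, ← zpow_mul]
      have hv : d ^ (v * (orderOf d : ℤ)) = 1 := by
        rw [mul_comm, zpow_mul, zpow_natCast, pow_orderOf_eq_one, one_zpow]
      have h1 := congrArg (fun m : ℤ => d ^ m) huv
      simp only [zpow_add, hv, mul_one, zpow_one] at h1
      exact h1
    refine (Nat.card_congr ((Equiv.mulRight e).subtypeEquiv fun x => ?_)).symm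
    show x ^ p ^ a = 1 ↔ (x * e) ^ p ^ a = d
    rw [Commute.mul_pow (Subgroup.mem_center_iff.1 hec x), hep]
    exact mul_eq_right.symm
  rw [hbij c hc hpc]
  -- total count
  set Z := Finset.univ.filter (fun y : G => y ∈ Subgroup.center G) with hZ
  set Z' := Z.filter (fun y : G => ¬ p ∣ orderOf y) with hZ'
  have hnc : p ^ a ∣ ∑ y ∈ Finset.univ.filter (fun y : G => y ∉ Subgroup.center G),
      Nat.card {x : G // x ^ p ^ a = y} := by
    rw [← Finset.sum_fiberwise_of_maps_to (g := fun y : G => ConjClasses.mk y) (t := Finset.univ)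
      (fun _ _ => Finset.mem_univ _)]
    refine Finset.dvd_sum fun K _ => ?_
    set T := (Finset.univ.filter (fun y : G => y ∉ Subgroup.center G)).filter
      (fun y => ConjClasses.mk y = K) with hT
    rcases T.eq_empty_or_nonempty with he | ⟨y, hy⟩
    · rw [he, Finset.sum_empty]; exact dvd_zero _
    simp only [hT, Finset.mem_filter, Finset.mem_univ, true_and] at hy
    have hTeq : ∀ z, z ∈ T ↔ IsConj y z := by
      intro z
      simp only [hT, Finset.mem_filter, Finset.mem_univ, true_and]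
      rw [← hy.2, ConjClasses.mk_eq_mk_iff_isConj, isConj_comm]
      refine ⟨fun h => h.2, fun h => ⟨fun hz => hy.1 ?_, h⟩⟩
      obtain ⟨g, rfl⟩ := isConj_iff.1 h.symm
      rw [Subgroup.mem_center_iff.1 hz g, mul_inv_cancel_right]
      exact hz
    have hsum : ∑ z ∈ T, Nat.card {x : G // x ^ p ^ a = z} = Nat.card {x : G // IsConj y (x ^ p ^ a)} := by
      rw [← Finset.sum_coe_sort T, ← Nat.card_sigma]
      exact Nat.card_congr
        { toFun := fun s => ⟨s.2.1, by rw [s.2.2]; exact (hTeq _).1 s.1.2⟩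
          invFun := fun x => ⟨⟨x.1 ^ p ^ a, (hTeq _).2 x.2⟩, x.1, rfl⟩
          left_inv := by rintro ⟨⟨z, hz⟩, x, (hx : x ^ p ^ a = z)⟩; subst hx; rfl
          right_inv := fun x => rfl }
    rw [hsum]
    exact hsmall y hy.1
  have hZp : p ^ a ∣ ∑ y ∈ Z.filter (fun y : G => p ∣ orderOf y), Nat.card {x : G // x ^ p ^ a = y} :=
    Finset.dvd_sum fun y hy => pow_dvd_of_dvd_orderOf hp (Finset.mem_filter.1 hy).2
  have htot := sum_fibers (G := G) (p ^ a)
  rw [← Finset.sum_filter_add_sum_filter_not Finset.univ (fun y : G => y ∈ Subgroup.center G),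
    ← Finset.sum_filter_add_sum_filter_not Z (fun y : G => p ∣ orderOf y), ← hZ'] at htot
  have hc0 : ∑ y ∈ Z', Nat.card {x : G // x ^ p ^ a = y} = Z'.card * Nat.card {x : G // x ^ p ^ a = 1} := by
    rw [Finset.sum_congr rfl (fun y hy => hbij y (Finset.mem_filter.1 (Finset.mem_filter.1 hy).1).2
      (Finset.mem_filter.1 hy).2), Finset.sum_const, smul_eq_mul]
  have hd : p ^ a ∣ Z'.card * Nat.card {x : G // x ^ p ^ a = 1} := by
    rw [← hc0]
    have h := hpa
    rw [← htot] at h
    exact (Nat.dvd_add_right hZp).1 ((Nat.dvd_add_left hnc).1 h)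
  refine ((hp.coprime_iff_not_dvd.2 ?_).pow_left a).dvd_of_dvd_mul_left hd
  -- the central elements of order prime to `p` form a subgroup of order prime to `p`
  let W : Subgroup G :=
    { carrier := {y | y ∈ Subgroup.center G ∧ ¬ p ∣ orderOf y}
      one_mem' := ⟨one_mem _, by rw [orderOf_one]; exact hp.not_dvd_one⟩
      mul_mem' := fun {x y} hx hy => ⟨mul_mem hx.1 hy.1, fun h =>
        (hp.dvd_mul.1 (h.trans ((Commute.orderOf_mul_dvd_lcm (Subgroup.mem_center_iff.1 hy.1 x)).trans
          (Nat.lcm_dvd_mul _ _)))).elim hx.2 hy.2⟩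
      inv_mem' := fun {x} hx => ⟨inv_mem hx.1, by rw [orderOf_inv]; exact hx.2⟩ }
  have hcard : Z'.card = Nat.card W := by
    rw [← Nat.card_eq_finsetCard]
    exact Nat.card_congr (Equiv.subtypeEquivRight fun y => by
      simp only [hZ', hZ, Finset.mem_filter, Finset.mem_univ, true_and]; exact Iff.rfl)
  rw [hcard]
  intro hdW
  have : Fact p.Prime := ⟨hp⟩
  obtain ⟨w, hw⟩ := exists_prime_orderOf_dvd_card' (G := W) p hdW
  exact w.2.2 (by rw [Subgroup.orderOf_coe, hw])

/-- **Frobenius**: for central `c`, `gcd (n, |G|)` divides the number of solutions of `x ^ n = c`. -/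
theorem gcd_dvd_central : ∀ (g : ℕ) (G : Type u) [Group G] [Finite G], Nat.card G = g →
    ∀ (n : ℕ), 0 < n → ∀ c ∈ Subgroup.center G, Nat.gcd n (Nat.card G) ∣ Nat.card {x : G // x ^ n = c} := by
  intro g
  induction g using Nat.strong_induction_on with
  | _ g ihG =>
  intro G _ _ hg n
  induction n using Nat.strong_induction_on with
  | _ n ihn =>
  intro hn c hc
  classical
  have : Fintype G := Fintype.ofFinite G
  -- classes for a smaller exponent
  have hclass : ∀ m, 0 < m → m < n ∨ True → ∀ y : G, (y ∈ Subgroup.center G → m < n) →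
      Nat.gcd m (Nat.card G) ∣ Nat.card {x : G // IsConj y (x ^ m)} := by
    intro m hm _ y hy
    refine dvd_trans ?_ (gcd_dvd_conj_fiber y m ?_)
    · exact Nat.gcd_dvd_gcd_of_dvd_left _ (dvd_mul_left m _)
    by_cases hyc : y ∈ Subgroup.center G
    · have htop : Subgroup.centralizer ({y} : Set G) = ⊤ := eq_top_iff.2 fun z _ =>
        Subgroup.mem_centralizer_singleton_iff.2 (Subgroup.mem_center_iff.1 hyc z)
      have h := ihn m (hy hyc) hm y hyc
      have e : Nat.card (Subgroup.centralizer ({y} : Set G)) = Nat.card G := by rw [htop, Subgroup.card_top]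
      rw [e]
      refine h.trans (dvd_of_eq (Nat.card_congr
        { toFun := fun x => ⟨⟨x.1, Subgroup.mem_centralizer_singleton_iff.2 (Subgroup.mem_center_iff.1 hyc x.1)⟩,
            Subtype.ext x.2⟩
          invFun := fun x => ⟨x.1.1, congrArg Subtype.val x.2⟩
          left_inv := fun x => rfl
          right_inv := fun x => rfl }))
    · refine ihG (Nat.card (Subgroup.centralizer ({y} : Set G))) ?_ _ rfl m hm _ ?_
      · rw [← hg]
        refine lt_of_le_of_ne (Subgroup.card_le_card_group _) fun h => hyc ?_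
        have htop := Subgroup.eq_top_of_card_eq _ h
        exact Subgroup.mem_center_iff.2 fun z =>
          Subgroup.mem_centralizer_singleton_iff.1 (htop.ge (Subgroup.mem_top z))
      · rw [Subgroup.mem_center_iff]
        exact fun z => Subtype.ext (Subgroup.mem_centralizer_singleton_iff.1 z.2)
  rcases eq_or_ne n 1 with rfl | hn1
  · simp
  obtain ⟨p, hp, hpn⟩ := Nat.exists_prime_and_dvd hn1
  obtain ⟨a, m, hpm, rfl⟩ := Nat.exists_eq_pow_mul_and_not_dvd hn.ne' p hp.ne_one
  have hm0 : 0 < m := Nat.pos_of_ne_zero fun h => hpm (h ▸ dvd_zero p)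
  have ha0 : a ≠ 0 := fun h => hpm (by rwa [h, pow_zero, one_mul] at hpn)
  rcases eq_or_ne m 1 with rfl | hm1
  · -- a prime power exponent
    rw [mul_one] at ihn hclass ⊢
    obtain ⟨b, hb, hgb⟩ := (Nat.dvd_prime_pow hp).1 (Nat.gcd_dvd_left (p ^ a) (Nat.card G))
    rw [hgb]
    rcases hb.lt_or_eq with hlt | rfl
    · -- split off the part of the exponent beyond `|G|`
      have hpow : ∀ j ≤ a, b ≤ j → Nat.gcd (p ^ j) (Nat.card G) = p ^ b := by
        intro j hj hbj
        refine Nat.dvd_antisymm ?_ (Nat.dvd_gcd (Nat.pow_dvd_pow p hbj) (hgb ▸ Nat.gcd_dvd_right _ _))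
        rw [← hgb]
        exact Nat.gcd_dvd_gcd_of_dvd_left _ (Nat.pow_dvd_pow p hj)
      rcases Nat.eq_zero_or_pos b with rfl | hb0
      · simp
      have hsplit : p ^ a = p ^ b * p ^ (a - b) := by rw [← pow_add]; congr 1; omega
      have hlt' : p ^ b < p ^ a := Nat.pow_lt_pow_right hp.one_lt hlt
      rw [hsplit]
      have hfib : Nat.card {x : G // x ^ (p ^ b * p ^ (a - b)) = c} =
          ∑ y : {y : G // y ^ p ^ (a - b) = c}, Nat.card {x : G // x ^ p ^ b = y.1} := by
        rw [← Nat.card_sigma]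
        exact Nat.card_congr
          { toFun := fun x => ⟨⟨x.1 ^ p ^ b, by rw [← pow_mul]; exact x.2⟩, x.1, rfl⟩
            invFun := fun s => ⟨s.2.1, by rw [pow_mul, s.2.2]; exact s.1.2⟩
            left_inv := fun x => rfl
            right_inv := by rintro ⟨⟨y, hy⟩, x, (hx : _ = y)⟩; subst hx; rfl }
      rw [hfib, ← Finset.sum_fiberwise_of_maps_to (g := fun y : {y : G // y ^ p ^ (a - b) = c} => ConjClasses.mk y.1)
        (t := Finset.univ) (fun _ _ => Finset.mem_univ _)]
      refine Finset.dvd_sum fun K _ => ?_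
      set T := Finset.univ.filter (fun y : {y : G // y ^ p ^ (a - b) = c} => ConjClasses.mk y.1 = K) with hT
      rcases T.eq_empty_or_nonempty with he | ⟨y, hy⟩
      · rw [he, Finset.sum_empty]; exact dvd_zero _
      simp only [hT, Finset.mem_filter, Finset.mem_univ, true_and] at hy
      have hTeq : ∀ z : {y : G // y ^ p ^ (a - b) = c}, z ∈ T ↔ IsConj y.1 z.1 := fun z => by
        simp only [hT, Finset.mem_filter, Finset.mem_univ, true_and]
        rw [← hy, ConjClasses.mk_eq_mk_iff_isConj, isConj_comm]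
      have hsum : ∑ z ∈ T, Nat.card {x : G // x ^ p ^ b = z.1} = Nat.card {x : G // IsConj y.1 (x ^ p ^ b)} := by
        rw [← Finset.sum_coe_sort T, ← Nat.card_sigma]
        refine Nat.card_congr
          { toFun := fun s => ⟨s.2.1, by rw [s.2.2]; exact (hTeq _).1 s.1.2⟩
            invFun := fun x => ⟨⟨⟨x.1 ^ p ^ b, ?_⟩, (hTeq _).2 x.2⟩, x.1, rfl⟩
            left_inv := by rintro ⟨⟨⟨z, hz'⟩, hz⟩, x, (hx : _ = z)⟩; subst hx; rfl
            right_inv := fun x => rfl }
        obtain ⟨h, hh⟩ := isConj_iff.1 x.2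
        rw [← hh, conj_pow, y.2, Subgroup.mem_center_iff.1 hc h, mul_inv_cancel_right]
      rw [hsum]
      refine (dvd_of_eq (hpow b hlt.le le_rfl).symm).trans ?_
      exact hclass _ (pow_pos hp.pos b) (Or.inr trivial) y.1 (fun _ => hlt')
    · refine gcd_dvd_fiber_of_smaller hp (hgb ▸ Nat.gcd_dvd_right _ _) (fun y hy => ?_) hc
      exact (dvd_of_eq hgb.symm).trans <| hclass _ (pow_pos hp.pos _) (Or.inr trivial) y (fun h => absurd h hy)
  · -- coprime factors
    have hcop : (p ^ a).Coprime m := (hp.coprime_iff_not_dvd.2 hpm).pow_left a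
    have hgcd : Nat.gcd (p ^ a * m) (Nat.card G) = Nat.gcd (p ^ a) (Nat.card G) * Nat.gcd m (Nat.card G) := by
      rw [Nat.gcd_comm, Nat.Coprime.gcd_mul _ hcop, Nat.gcd_comm, Nat.gcd_comm (Nat.card G) m]
    rw [hgcd]
    have key : ∀ u v : ℕ, 0 < u → 0 < v → u < p ^ a * m → u * v = p ^ a * m →
        Nat.gcd u (Nat.card G) ∣ Nat.card {x : G // x ^ (u * v) = c} := by
      intro u v hu hv hult huv
      have hfib : Nat.card {x : G // x ^ (u * v) = c} =
          ∑ y : {y : G // y ^ v = c}, Nat.card {x : G // x ^ u = y.1} := by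
        rw [← Nat.card_sigma]
        exact Nat.card_congr
          { toFun := fun x => ⟨⟨x.1 ^ u, by rw [← pow_mul]; exact x.2⟩, x.1, rfl⟩
            invFun := fun s => ⟨s.2.1, by rw [pow_mul, s.2.2]; exact s.1.2⟩
            left_inv := fun x => rfl
            right_inv := by rintro ⟨⟨y, hy⟩, x, (hx : _ = y)⟩; subst hx; rfl }
      rw [hfib, ← Finset.sum_fiberwise_of_maps_to (g := fun y : {y : G // y ^ v = c} => ConjClasses.mk y.1)
        (t := Finset.univ) (fun _ _ => Finset.mem_univ _)]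
      refine Finset.dvd_sum fun K _ => ?_
      set T := Finset.univ.filter (fun y : {y : G // y ^ v = c} => ConjClasses.mk y.1 = K) with hT
      rcases T.eq_empty_or_nonempty with he | ⟨y, hy⟩
      · rw [he, Finset.sum_empty]; exact dvd_zero _
      simp only [hT, Finset.mem_filter, Finset.mem_univ, true_and] at hy
      have hTeq : ∀ z : {y : G // y ^ v = c}, z ∈ T ↔ IsConj y.1 z.1 := fun z => by
        simp only [hT, Finset.mem_filter, Finset.mem_univ, true_and]
        rw [← hy, ConjClasses.mk_eq_mk_iff_isConj, isConj_comm]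
      have hsum : ∑ z ∈ T, Nat.card {x : G // x ^ u = z.1} = Nat.card {x : G // IsConj y.1 (x ^ u)} := by
        rw [← Finset.sum_coe_sort T, ← Nat.card_sigma]
        refine Nat.card_congr
          { toFun := fun s => ⟨s.2.1, by rw [s.2.2]; exact (hTeq _).1 s.1.2⟩
            invFun := fun x => ⟨⟨⟨x.1 ^ u, ?_⟩, (hTeq _).2 x.2⟩, x.1, rfl⟩
            left_inv := by rintro ⟨⟨⟨z, hz'⟩, hz⟩, x, (hx : _ = z)⟩; subst hx; rfl
            right_inv := fun x => rfl }
        obtain ⟨h, hh⟩ := isConj_iff.1 x.2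
        rw [← hh, conj_pow, y.2, Subgroup.mem_center_iff.1 hc h, mul_inv_cancel_right]
      rw [hsum]
      exact hclass u hu (Or.inr trivial) y.1 (fun _ => hult)
    have h1 := key (p ^ a) m (pow_pos hp.pos a) hm0
      (lt_mul_of_one_lt_right (pow_pos hp.pos a) (by omega)) rfl
    have h2 := key m (p ^ a) hm0 (pow_pos hp.pos a)
      (lt_mul_of_one_lt_left hm0 (Nat.one_lt_pow ha0 hp.one_lt)) (mul_comm _ _)
    rw [mul_comm m] at h2
    exact Nat.Coprime.mul_dvd_of_dvd_of_dvd
      (Nat.Coprime.coprime_dvd_left (Nat.gcd_dvd_left _ _)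
        (Nat.Coprime.coprime_dvd_right (Nat.gcd_dvd_left _ _) hcop)) h1 h2

/-- **Frobenius's theorem** in general form. -/
theorem gcd_dvd (c : G) (n : ℕ) :
    Nat.gcd (Nat.card {y : G // IsConj c y} * n) (Nat.card G) ∣ Nat.card {x : G // IsConj c (x ^ n)} := by
  classical
  rcases Nat.eq_zero_or_pos n with rfl | hn
  · rw [mul_zero, Nat.gcd_zero_left]
    rcases eq_or_ne c 1 with rfl | hc
    · exact dvd_of_eq (Nat.card_congr (Equiv.subtypeUnivEquiv fun x => by rw [pow_zero])).symm
    · have : IsEmpty {x : G // IsConj c (x ^ 0)} := ⟨fun x => hc (isConj_one_left.1 (by simpa using x.2))⟩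
      rw [Nat.card_of_isEmpty (α := {x : G // IsConj c (x ^ 0)})]; exact dvd_zero _
  · refine gcd_dvd_conj_fiber c n (gcd_dvd_central _ _ rfl n hn _ ?_)
    rw [Subgroup.mem_center_iff]
    exact fun z => Subtype.ext (Subgroup.mem_centralizer_singleton_iff.1 z.2)

/-- The case `c = 1`. -/
theorem gcd_dvd_one (n : ℕ) (hn : 0 < n) :
    Nat.gcd n (Nat.card G) ∣ Nat.card {x : G // x ^ n = 1} :=
  gcd_dvd_central _ G rfl n hn 1 (one_mem _)

end Cfsg.Agent.H77.FrobEquation
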