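import Cfsg.Agent.Components.Basic
import Cfsg.Agent.ChevGrp.Thms
import Cfsg.Agent.ChevGrp.Order
import Cfsg.Agent.ChevGrp.Simple
import Cfsg.Agent.Chev.Rules

/-!
The generalized Fitting subgroup of a proper standard parabolic subgroup is a `p`-group.

The centralizer of `U_J` in `P_J` lies in `U`: a reflection in it would fix every root outside
`Φ_J`, and a torus element in it would fix every root subgroup.
-/

set_option autoImplicit false
set_option linter.style.haveILetI false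

namespace Cfsg.Agent.H77

open Subgroup

theorem isPGroup_genFitting {X : Type*} [Group X] [Finite X] {p : ℕ} [Fact p.Prime]
    (Q : Subgroup X) [Q.Normal] (hQ : IsPGroup p Q)
    (hC : IsPGroup p (centralizer (Q : Set X))) :
    IsPGroup p (Cfsg.generalizedFittingSubgroup X) := by
  obtain ⟨P, hP⟩ := hQ.exists_le_sylow
  haveI := hQ.isNilpotent
  haveI : Group.IsSolvable Q := inferInstance
  have hlayer : Cfsg.layer X = ⊥ := by
    rw [eq_bot_iff, Cfsg.Agent.Components.layer_le_iff]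
    intro K hK
    have hKC : K ≤ centralizer (Q : Set X) := by
      refine (Cfsg.Agent.Components.component_le_layer hK).trans ?_
      rw [← commutator_eq_bot_iff_le_centralizer]
      exact Cfsg.Agent.Components.layer_centralizes_solvable inferInstance inferInstance
    haveI := (hC.to_le hKC).isNilpotent
    exact absurd (inferInstance : Group.IsSolvable K)
      (Cfsg.Agent.Components.quasisimple_not_solvable hK.2)
  refine P.2.to_le ?_
  rw [Cfsg.generalizedFittingSubgroup, hlayer, bot_sup_eq]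
  refine sSup_le fun N ⟨hNn, hNnil⟩ => ?_
  haveI := hNn
  haveI := hNnil
  have hNp : IsPGroup p N := by
    rw [IsPGroup.iff_card]
    refine ⟨_, Nat.eq_prime_pow_of_unique_prime_dvd Nat.card_pos.ne' fun {q} hq hqd => ?_⟩
    by_contra hne
    haveI := Fact.mk hq
    obtain ⟨S⟩ : Nonempty (Sylow q N) := inferInstance
    haveI : (S : Subgroup N).Normal := by
      have tfae : Group.IsNilpotent N ↔
          ∀ (q : ℕ) (_ : Fact q.Prime) (P : Sylow q N), (P : Subgroup N).Normal :=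
        Group.isNilpotent_of_finite_tfae.out 0 3
      exact tfae.1 hNnil q inferInstance S
    haveI : (S : Subgroup N).Characteristic := S.characteristic_of_normal inferInstance
    set T := (S : Subgroup N).map N.subtype with hT
    haveI : T.Normal := inferInstance
    have hTq : IsPGroup q T := S.2.map N.subtype
    have hd : Disjoint T Q := IsPGroup.disjoint_of_ne q p hne T Q hTq hQ
    have hTC : T ≤ centralizer (Q : Set X) := fun t ht x hx =>
      (Subgroup.commute_of_normal_of_disjoint T Q inferInstance inferInstance hd t x ht hx).symm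
    have hbot : T = ⊥ :=
      disjoint_self.1 (IsPGroup.disjoint_of_ne q p hne T T hTq (hC.to_le hTC))
    have : (S : Subgroup N) = ⊥ :=
      (map_eq_bot_iff_of_injective _ N.subtype_injective).1 hbot
    exact S.ne_bot_of_dvd_card hqd this
  exact le_sup_left.trans (P.is_maximal' (hNp.to_sup_of_normal_left P.2) le_sup_right).le

end Cfsg.Agent.H77

namespace Cfsg.Agent.ChevGrp

open Cfsg.Lie
open scoped MatrixGroups

namespace Sys

variable {D : ChevalleyDatum} {F : Type*} [Field F] {G : Type*} [Group G] (S : Sys D F G)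
  {len : ℕ → ℕ}

theorem centralizer_UJ_le_Bbar (hS : Rules D F) (hR : RootTable D len) {J : Set ℕ}
    (hJ : ∃ j : Fin D.rank, (j : ℕ) ∉ J) :
    S.PJ J ⊓ Subgroup.centralizer (S.UJ J : Set G) ≤ S.Bbar := by
  classical
  set C := S.PJ J ⊓ Subgroup.centralizer (S.UJ J : Set G) with hC
  have hBP : S.Bbar ≤ S.PJ J := le_sup_left
  have hPN := S.PJ_le_normalizer hS hR J
  have hPG : S.PJ J ≤ S.Gbar := by
    rw [← S.normalizer_inf_Gbar hS hR J]
    exact inf_le_right
  have hnorm : S.Bbar ≤ Subgroup.normalizer (C : Set G) := by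
    refine fun b hb => Subgroup.mem_normalizer_iff.2 fun z => ?_
    have key : ∀ q ∈ S.PJ J, ∀ z ∈ C, q * z * q⁻¹ ∈ C := fun q hq z hz =>
      Subgroup.mem_inf.2 ⟨mul_mem (mul_mem hq hz.1) (inv_mem hq), fun x hx => by
        have h1 : q⁻¹ * x * q ∈ S.UJ J := by
          have := (Subgroup.mem_normalizer_iff.1 (inv_mem (hPN hq)) x).1 hx
          simpa using this
        have h2 := congrArg (fun y => q * y * q⁻¹) (hz.2 _ h1)
        simpa [mul_assoc] using h2⟩
    exact ⟨key b (hBP hb) z, fun hz => by simpa [mul_assoc] using key b⁻¹ (inv_mem (hBP hb)) _ hz⟩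
  by_contra hCB
  have heq := S.eq_PJ hS hR (P := S.Bbar ⊔ C) le_sup_left
    (sup_le (S.Bbar_le_Gbar hS hR) (inf_le_left.trans hPG))
  obtain ⟨i, hi⟩ : ∃ i : Fin D.rank, S.nI i ∈ S.Bbar ⊔ C := by
    by_contra hno
    push Not at hno
    apply hCB
    intro k hk
    have hk2 : k ∈ S.Bbar ⊔ C := Subgroup.mem_sup_right hk
    rw [heq] at hk2
    have he : {j : ℕ | ∃ i : Fin D.rank, (i : ℕ) = j ∧ S.nI i ∈ S.Bbar ⊔ C} = ∅ :=
      Set.eq_empty_of_forall_notMem fun j ⟨i, _, hi⟩ => hno i hi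
    rw [he, PJ] at hk2
    simpa using hk2
  have hset : (S.nI i : G) ∈ ((C ⊔ S.Bbar : Subgroup G) : Set G) := by rwa [sup_comm]
  rw [Subgroup.coe_mul_of_right_le_normalizer_left _ _ hnorm] at hset
  obtain ⟨c, hc, b, hb, hcb⟩ := Set.mem_mul.1 hset
  obtain ⟨η, hη, hni⟩ := S.conjP_nI hS hR i
  set T := degPos D len (outJ D J) with hT
  have hTpos : ∀ r ∈ T, D.IsPosRoot r := fun r hr => hR.pos_of_degPos J hr
  have hUJ : S.UJ J = S.US T := by rw [hT, hR.degPos_outJ_eq J]; rfl
  have hTcl : UClosed D len (htHom D) T :=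
    hR.posSet_closed.subset_closed hTpos (hR.degPos_closed _).closed
  -- the reflection maps each root outside `Φ_J` to one which is at least as high
  have key : ∀ r ∈ T, D.reflectRoot i r ∈ T ∧ D.cartan i r ≤ 0 := by
    intro r hr
    have hx : S.x r 1 ∈ S.UJ J := hUJ ▸ S.x_mem_US hr 1
    have hbx : b * S.x r 1 * b⁻¹ ∈ S.UJ J :=
      (Subgroup.mem_normalizer_iff.1 (hPN (hBP hb)) _).1 hx
    have e : S.nI i * S.x r 1 * (S.nI i)⁻¹ = b * S.x r 1 * b⁻¹ := by
      rw [← hcb]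
      calc c * b * S.x r 1 * (c * b)⁻¹ = c * (b * S.x r 1 * b⁻¹) * c⁻¹ := by simp [mul_assoc]
        _ = _ := by rw [← hc.2 _ hbx, mul_inv_cancel_right]
    rw [hni r hr.1, act_singleton, mul_one] at e
    have hη0 : η r ≠ 0 := right_ne_zero_of_mul_eq_one (hη r hr.1)
    refine ⟨S.root_mem_of_mem_US hR hTcl hTpos (hR.reflect_lt i i.2 r hr.1) hη0 hS
      (hUJ ▸ e ▸ hbx), ?_⟩
    obtain ⟨u, hu, h, hh, rfl⟩ := (S.mem_Bbar hS hR).1 hb
    have hlvl : u * h * S.x r 1 * (u * h)⁻¹ ∈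
        S.US (lvl D len (htHom D) (posSet D) (htHom D (vec D len r))) := by
      obtain ⟨a, -, ha⟩ := S.conjP_Hbar hS hR hh
      have e2 : u * h * S.x r 1 * (u * h)⁻¹ = u * (h * S.x r 1 * h⁻¹) * u⁻¹ := by
        simp [mul_assoc]
      rw [e2, ha r hr.1, act_nil]
      refine (Subgroup.mem_normalizer_iff.1
        (S.US_le_normalizer_lvl hR hR.posSet_closed _ hu) _).1 (S.x_mem_US ?_ _)
      exact ⟨hTpos r hr, le_rfl⟩
    have hmem := S.root_mem_of_mem_US hR (UClosed.lvl_closed hR hR.posSet_closed _) (fun r h => h.1)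
      (hR.reflect_lt i i.2 r hr.1) hη0 hS (e ▸ hlvl)
    by_contra hpos
    have := hR.ht_reflect_lt i.2 hr.1 (not_le.1 hpos)
    have h2 := hmem.2
    unfold ht at this
    omega
  have hzero : ∀ r ∈ T, D.cartan i r = 0 := fun r hr => by
    have h1 := (key r hr).2
    have h2 := (key _ (key r hr).1).2
    rw [hR.cartan_reflect i.2 i.2 hr.1, hR.cartan_self i i.2] at h2
    omega
  obtain ⟨j₀, hj₀⟩ := hJ
  let Z : Finset (Fin D.rank) := Finset.univ.filter fun k => ∀ r ∈ T, D.cartan k r = 0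
  have hiZ : i ∈ Z := by simpa [Z] using hzero
  have hj₀T : D.simple j₀ ∈ T := ⟨hR.simple_lt j₀ j₀.2, (hR.outJ_simple J j₀).2 hj₀⟩
  have hj₀Z : j₀ ∉ Z := fun h => by
    have := (Finset.mem_filter.1 h).2 _ hj₀T
    rw [hR.cartan_self j₀ j₀.2] at this
    omega
  obtain ⟨k, hk, j, hj, hkj⟩ :=
    hR.connected Z ⟨i, hiZ⟩ fun e => hj₀Z (e ▸ Finset.mem_univ _)
  have hk' := (Finset.mem_filter.1 hk).2
  have hjJ : (j : ℕ) ∈ J := by
    by_contra hjJ
    exact hkj (hk' _ ⟨hR.simple_lt j j.2, (hR.outJ_simple J j).2 hjJ⟩)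
  obtain ⟨r, hr, hrj⟩ : ∃ r ∈ T, D.cartan j r ≠ 0 := by
    by_contra hno
    push Not at hno
    exact hj (by simpa [Z] using hno)
  have hr' : D.reflectRoot j r ∈ T := by
    refine ⟨hR.reflect_lt j j.2 r hr.1, ?_⟩
    rw [hR.vec_reflect j j.2 r hr.1, map_sub, map_zsmul, (hR.outJ_simple J j).1 hjJ, smul_zero,
      sub_zero]
    exact hr.2
  have := hk' _ hr'
  rw [hR.cartan_reflect k.2 j.2 hr.1, hk' r hr, zero_sub, neg_eq_zero, mul_eq_zero] at this
  exact this.elim hrj hkj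

theorem centralizer_UJ_le_Ubar (hS : Rules D F) (hR : RootTable D len) {J : Set ℕ}
    (hJ : ∃ j : Fin D.rank, (j : ℕ) ∉ J) (hθ : Function.Injective S.θ) :
    S.PJ J ⊓ Subgroup.centralizer (S.UJ J : Set G) ≤ S.Ubar := by
  intro c hc
  have hB := S.centralizer_UJ_le_Bbar hS hR hJ
  obtain ⟨u, hu, h, hh, rfl⟩ := (S.mem_Bbar hS hR).1 (hB hc)
  obtain ⟨a, haneg, ha⟩ := S.conjP_Hbar hS hR hh
  have hconj : ∀ q ∈ S.PJ J, q * (u * h) * q⁻¹ ∈ S.Bbar := by
    intro q hq
    refine hB (Subgroup.mem_inf.2 ⟨mul_mem (mul_mem hq hc.1) (inv_mem hq), fun x hx => ?_⟩)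
    have h1 : q⁻¹ * x * q ∈ S.UJ J := by
      have := (Subgroup.mem_normalizer_iff.1 (inv_mem (S.PJ_le_normalizer hS hR J hq)) x).1 hx
      simpa using this
    have h2 := congrArg (fun y => q * y * q⁻¹) (hc.2 _ h1)
    simpa [mul_assoc] using h2
  -- leading coefficient
  have hout : ∀ r, D.IsPosRoot r → ¬ D.InRootSub J r → a r = 1 := by
    intro r hp hn
    have hx : S.x r 1 ∈ S.UJ J := S.x_mem_US (T := {r | D.IsPosRoot r ∧ ¬ D.InRootSub J r}) ⟨hp, hn⟩ 1
    have e : u * S.x r (a r) * u⁻¹ = S.x r 1 := by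
      have h1 := ha r hp.1 1
      rw [act_nil, mul_one] at h1
      rw [← h1]
      calc u * (h * S.x r 1 * h⁻¹) * u⁻¹ = u * h * S.x r 1 * (u * h)⁻¹ := by simp [mul_assoc]
        _ = _ := by rw [← hc.2 _ hx, mul_inv_cancel_right]
    have hsw := S.swap_lvl hR hR.posSet_closed (r := r) hp (a r) hu
    have hsw' := Cg.mul_right S hR hR.posSet_closed (inv_mem hu) hsw
    rw [e, mul_inv_cancel_right, Cg, S.x_inv hp.1, S.x_add r hp.1] at hsw'
    by_contra hne
    have hmem := S.root_mem_of_mem_US hR (UClosed.lvl_closed hR hR.posSet_closed _) (fun r h => h.1) hp.1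
      (fun h0 => hne (by linear_combination -h0)) hS hsw'
    have := hmem.2
    omega
  -- simple roots in `J`
  have hin : ∀ i : Fin D.rank, (i : ℕ) ∈ J → a (D.simple i) = 1 := by
    intro i hi
    have hnP : S.nI i ∈ S.PJ J := Subgroup.mem_sup_right (Subgroup.subset_closure ⟨i, hi, rfl⟩)
    obtain ⟨u', hu', t, rfl⟩ := S.x_simple_split hR i hu
    obtain ⟨η, hη, hni⟩ := S.conjP_nI hS hR i
    have hp := hR.simple_lt i i.2
    have hnh := S.nI_conj_Hbar hS hR i hh
    have hnu := S.nI_conj_Up hS hR i hu'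
    have hneg := hR.neg_simple_isNeg i
    have h1 : S.x (D.neg (D.simple i)) (η (D.simple i) * t) ∈ S.Vbar ⊓ S.Bbar := by
      refine Subgroup.mem_inf.2 ⟨S.x_mem_US hneg _, ?_⟩
      have e : S.x (D.neg (D.simple i)) (η (D.simple i) * t) = (S.nI i * u' * (S.nI i)⁻¹)⁻¹ *
          (S.nI i * (u' * S.x (D.simple i) t * h) * (S.nI i)⁻¹) *
            (S.nI i * h * (S.nI i)⁻¹)⁻¹ := by
        have := hni _ hp t
        rw [act_singleton, hR.reflect_simple i.2] at this
        rw [← this]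
        simp [mul_assoc]
      rw [e]
      exact mul_mem (mul_mem (inv_mem (S.Ubar_le_Bbar (S.US_mono Set.sdiff_subset hnu)))
        (hconj _ hnP)) (inv_mem (S.Hbar_le_Bbar hnh))
    rw [S.Vbar_inf_Bbar hS hR, Subgroup.mem_bot] at h1
    have ht : t = 0 := by
      have h2 := hni _ hp t
      rw [act_singleton, hR.reflect_simple i.2, h1, mul_inv_eq_one, mul_eq_left] at h2
      by_contra ht
      have := S.root_mem_of_mem_US hR (T := ∅) (hR.posSet_closed.subset_closed (Set.empty_subset _)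
        (fun r hr => hr.elim)) (fun r hr => hr.elim) hp ht hS (h2 ▸ one_mem _)
      exact this
    subst ht
    rw [S.x_zero hp, mul_one] at hconj
    -- now conjugate by a negative root element
    set m := D.neg (D.simple i) with hm
    have hmlt : m < D.nroots := hR.neg_lt _ hp
    have hmJ : D.InRootSub J m := (hR.inRootSub_iff J hmlt).2
      (by rw [hR.deg_neg _ hp, (hR.outJ_simple J i).1 hi, neg_zero])
    have hmP : S.x m 1 ∈ S.PJ J := S.x_mem_PJ hS hR J hmJ 1
    have hmu : S.x m 1 * u' * (S.x m 1)⁻¹ ∈ S.Ubar := by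
      have hset : posSet D \ {D.simple i} = {r | D.IsPosRoot r ∧ ¬ D.InRootSub {(i : ℕ)} r} := by
        ext r
        constructor
        · rintro ⟨hr, hne⟩
          exact ⟨hr, fun h1 => hne (hR.eq_simple r hr.1 hr i fun j hj => by
            simp [vec, h1.2 j j.2 (fun e => hj (Fin.ext e)), -Array.getD_eq_getD_getElem?])⟩
        · rintro ⟨hr, hne⟩
          refine ⟨hr, fun e => hne ?_⟩
          rw [Set.mem_singleton_iff.1 e]
          exact (hR.inRootSub_iff _ hp).2 ((hR.outJ_simple _ i).1 (Set.mem_singleton _))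
      have hmi : D.InRootSub {(i : ℕ)} m := (hR.inRootSub_iff _ hmlt).2
        (by rw [hR.deg_neg _ hp, (hR.outJ_simple _ i).1 (Set.mem_singleton _), neg_zero])
      have hn' := S.PJ_le_normalizer hS hR {(i : ℕ)} (S.x_mem_PJ hS hR _ hmi 1)
      rw [UJ, ← hset] at hn'
      exact S.US_mono Set.sdiff_subset ((Subgroup.mem_normalizer_iff.1 hn' u').1 hu')
    have h5 : S.x m 1 * h * (S.x m 1)⁻¹ ∈ S.Bbar := by
      have e : S.x m 1 * h * (S.x m 1)⁻¹ =
          (S.x m 1 * u' * (S.x m 1)⁻¹)⁻¹ * (S.x m 1 * (u' * h) * (S.x m 1)⁻¹) := by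
        simp [mul_assoc]
      rw [e]
      exact mul_mem (inv_mem (S.Ubar_le_Bbar hmu)) (hconj _ hmP)
    have h6 : S.x m (a m - 1) ∈ S.Vbar ⊓ S.Bbar := by
      refine Subgroup.mem_inf.2 ⟨S.x_mem_US hneg _, ?_⟩
      have h7 := mul_mem (S.Hbar_le_Bbar hh) (inv_mem h5)
      have e : S.x m (a m - 1) = h * (S.x m 1 * h * (S.x m 1)⁻¹)⁻¹ := by
        have h8 := ha m hmlt 1
        rw [act_nil, mul_one] at h8
        rw [sub_eq_add_neg, ← S.x_add m hmlt, ← h8, ← S.x_inv hmlt]
        simp [mul_assoc]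
      rw [e]
      exact h7
    rw [S.Vbar_inf_Bbar hS hR, Subgroup.mem_bot] at h6
    have hm1 : a m = 1 := by
      by_contra hne
      exact S.root_mem_of_mem_US hR (T := ∅) (hR.posSet_closed.subset_closed (Set.empty_subset _)
        (fun r hr => hr.elim)) (fun r hr => hr.elim) hmlt (sub_ne_zero.2 hne) hS (h6 ▸ one_mem _)
    have := haneg _ hp
    rwa [← hm, hm1, one_mul] at this
  have hsimple : ∀ i : Fin D.rank, a (D.simple i) = 1 := by
    intro i
    by_cases hi : (i : ℕ) ∈ J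
    · exact hin i hi
    · refine hout _ (hR.simple_pos i) fun h1 => ?_
      have := (hR.inRootSub_iff J (hR.simple_lt i i.2)).1 h1
      have := (hR.outJ_simple J i).2 hi
      omega
  have hN : ∀ w : List (Fin D.rank), h * S.nW w * h⁻¹ = S.nW w := by
    intro w
    induction w with
    | nil => simp [nW_nil]
    | cons i w ih =>
      rw [nW_cons]
      have e : h * S.nI i * h⁻¹ = S.nI i := by
        rw [nI, ConjP.nEl hR haneg ha (hR.simple_lt i i.2), act_nil, hsimple i, one_mul]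
      calc h * (S.nI i * S.nW w) * h⁻¹ = (h * S.nI i * h⁻¹) * (h * S.nW w * h⁻¹) := by
            simp [mul_assoc]
        _ = _ := by rw [e, ih]
  have hall : ∀ r < D.nroots, h * S.x r 1 * h⁻¹ = S.x r 1 := by
    intro r hr
    obtain ⟨w, i, rfl⟩ := hR.exists_act_simple hr
    obtain ⟨b, hb, hwb⟩ := S.conjP_nW hS hR w
    have hp := hR.simple_lt i i.2
    have hb0 : b (D.simple i) ≠ 0 := right_ne_zero_of_mul_eq_one (hb _ hp)
    have e := hwb _ hp (b (D.simple i))⁻¹
    rw [mul_inv_cancel₀ hb0] at e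
    have ex := ha _ hp (b (D.simple i))⁻¹
    rw [act_nil, hsimple i, one_mul] at ex
    rw [← e]
    calc h * (S.nW w * S.x (D.simple i) (b (D.simple i))⁻¹ * (S.nW w)⁻¹) * h⁻¹
        = (h * S.nW w * h⁻¹) * (h * S.x (D.simple i) (b (D.simple i))⁻¹ * h⁻¹) *
            (h * S.nW w * h⁻¹)⁻¹ := by simp [mul_assoc]
      _ = _ := by rw [hN, ex]
  have hh1 : h = 1 := hθ ((S.θ_eq_one_of_fix hS hR hh hall).trans S.θ.map_one.symm)
  rw [hh1, mul_one]
  exact hu

end Sys

end Cfsg.Agent.ChevGrp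

namespace Cfsg.Agent.H77

open Cfsg.Lie Cfsg.Agent.ChevGrp
open scoped MatrixGroups

theorem isPGroup_genFitting_parabolic {D : ChevalleyDatum} {F : Type*} [Field F] [Fintype F]
    (p : ℕ) [Fact p.Prime] [CharP F p] (hS : Rules D F) (J : Set ℕ)
    (hJ : ∃ i, i < D.rank ∧ i ∉ J) :
    IsPGroup p (Cfsg.generalizedFittingSubgroup ↥(D.parabolicSubgroup F J)) := by
  obtain ⟨len, hR⟩ := hS.root
  rw [parabolicSubgroup_eq hS hR]
  set S := glSys hS with hSdef
  obtain ⟨k, -, hk⟩ := FiniteField.card F p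
  have hU : IsPGroup p ↥(S.Ubar) := by
    refine IsPGroup.of_card (n := (k : ℕ) * Nat.card (posSet D)) ?_
    rw [pow_mul, ← hk, ← Nat.card_eq_fintype_card]
    exact S.card_US hR hR.posSet_closed
  obtain ⟨i, hi, hiJ⟩ := hJ
  have hle := S.centralizer_UJ_le_Ubar hS hR (J := J) ⟨⟨i, hi⟩, hiJ⟩ (fun a b e => e)
  have hUJU : S.UJ J ≤ S.Ubar := S.US_mono fun r hr => hr.1
  have hUJP : S.UJ J ≤ S.PJ J := hUJU.trans (S.Ubar_le_Bbar.trans le_sup_left)
  haveI : ((S.UJ J).subgroupOf (S.PJ J)).Normal :=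
    (Subgroup.normal_subgroupOf_iff_le_normalizer hUJP).2 (S.PJ_le_normalizer hS hR J)
  refine isPGroup_genFitting ((S.UJ J).subgroupOf (S.PJ J)) ?_ ?_
  · exact (hU.to_le hUJU).of_equiv (Subgroup.subgroupOfEquivOfLe hUJP).symm
  · rintro ⟨c, hc⟩
    have hcU : ((c : ↥(S.PJ J)) : GL D.Idx F) ∈ S.Ubar := hle (Subgroup.mem_inf.2 ⟨c.2, fun x hx =>
      congrArg Subtype.val (hc ⟨x, hUJP hx⟩ hx)⟩)
    obtain ⟨n, hn⟩ := hU ⟨_, hcU⟩
    refine ⟨n, ?_⟩
    have hn' := congrArg Subtype.val hn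
    simp only [SubgroupClass.coe_pow, OneMemClass.coe_one] at hn'
    ext : 2
    simpa using hn'

end Cfsg.Agent.H77
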