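import Mathlib

/-!
# Cancellation and the Krull–Remak–Schmidt theorem for finite groups
-/

set_option autoImplicit false

namespace Cfsg.Agent.H77.Remak

open Function

universe u v w

section Cancel

variable {H : Type w} [Group H] [Finite H] {A : Type u} [Group A] [Finite A]
variable {B : Type v} [Group B] [Finite B]

instance finite_monoidHom (H : Type w) [Group H] [Finite H] (A : Type u) [Group A] [Finite A] :
    Finite (H →* A) := Finite.of_injective (fun f => (f : H → A)) DFunLike.coe_injective

/-- Homomorphisms are injections of quotients. -/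
theorem card_hom_eq (H : Type w) [Group H] [Finite H] (A : Type u) [Group A] [Finite A]
    [Fintype {N : Subgroup H // N.Normal}] :
    Nat.card (H →* A) = ∑ N : {N : Subgroup H // N.Normal},
      Nat.card {f : H →* A // f.ker = N.1} := by
  rw [← Nat.card_sigma]
  exact Nat.card_congr
    { toFun := fun f => ⟨⟨f.ker, inferInstance⟩, f, rfl⟩
      invFun := fun s => s.2.1
      left_inv := fun f => rfl
      right_inv := by rintro ⟨⟨N, hN⟩, f, (hf : f.ker = N)⟩; subst hf; rfl }

theorem card_ker_eq (N : Subgroup H) [N.Normal] :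
    Nat.card {f : H →* A // f.ker = N} = Nat.card {f : H ⧸ N →* A // Injective f} := by
  refine Nat.card_congr
    { toFun := fun f => ⟨QuotientGroup.lift N f.1 f.2.ge, ?_⟩
      invFun := fun f => ⟨f.1.comp (QuotientGroup.mk' N), ?_⟩
      left_inv := fun f => Subtype.ext (MonoidHom.ext fun x => rfl)
      right_inv := fun f => Subtype.ext (MonoidHom.ext fun x => by
        induction x using QuotientGroup.induction_on; rfl) }
  · rw [injective_iff_map_eq_one]
    intro x hx
    induction x using QuotientGroup.induction_on with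
    | _ h => exact (QuotientGroup.eq_one_iff h).2 (f.2.le (MonoidHom.mem_ker.2 hx))
  · ext x
    rw [MonoidHom.mem_ker, MonoidHom.comp_apply, ← map_one f.1, f.2.eq_iff]
    exact QuotientGroup.eq_one_iff x

/-- Equal numbers of homomorphisms give equal numbers of injective homomorphisms. -/
theorem card_inj_eq (hAB : ∀ (H : Type w) [Group H] [Finite H], Nat.card (H →* A) = Nat.card (H →* B)) :
    ∀ (c : ℕ) (H : Type w) [Group H] [Finite H], Nat.card H = c →
      Nat.card {f : H →* A // Injective f} = Nat.card {f : H →* B // Injective f} := by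
  intro c
  induction c using Nat.strong_induction_on with
  | _ c ih =>
  intro H _ _ hc
  classical
  have : Fintype {N : Subgroup H // N.Normal} := Fintype.ofFinite _
  have h := hAB H
  rw [card_hom_eq H A, card_hom_eq H B] at h
  let b : {N : Subgroup H // N.Normal} := ⟨⊥, inferInstance⟩
  rw [← Finset.add_sum_erase _ _ (Finset.mem_univ b), ← Finset.add_sum_erase (f := fun N : {N : Subgroup H // N.Normal} =>
    Nat.card {f : H →* B // f.ker = N.1}) _ (Finset.mem_univ b)] at h
  have hrest : ∀ N ∈ (Finset.univ.erase b : Finset {N : Subgroup H // N.Normal}),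
      Nat.card {f : H →* A // f.ker = N.1} = Nat.card {f : H →* B // f.ker = N.1} := by
    intro N hN
    have := N.2
    rw [card_ker_eq N.1, card_ker_eq N.1]
    refine ih _ ?_ _ rfl
    rw [← hc, Subgroup.card_eq_card_quotient_mul_card_subgroup N.1]
    refine lt_mul_of_one_lt_right Nat.card_pos (N.1.one_lt_card_iff_ne_bot.2 fun h => ?_)
    exact (Finset.mem_erase.1 hN).1 (Subtype.ext h)
  rw [Finset.sum_congr rfl hrest] at h
  have h2 := Nat.add_right_cancel h
  refine Eq.trans ?_ (h2.trans ?_) <;>
    exact Nat.card_congr (Equiv.subtypeEquivRight fun f => by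
      simp only [b, MonoidHom.ker_eq_bot_iff])

/-- A common factor does not affect the counts of homomorphisms. -/
theorem hom_eq {X : Type*} [Group X] [Finite X] (e : A × X ≃* B × X) (H : Type*) [Group H] [Finite H] :
    Nat.card (H →* A) = Nat.card (H →* B) := by
  let pA : (H →* A × X) ≃ (H →* A) × (H →* X) :=
    { toFun := fun f => ((MonoidHom.fst A X).comp f, (MonoidHom.snd A X).comp f)
      invFun := fun p => p.1.prod p.2
      left_inv := fun f => rfl
      right_inv := fun p => rfl }
  let pB : (H →* B × X) ≃ (H →* B) × (H →* X) :=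
    { toFun := fun f => ((MonoidHom.fst B X).comp f, (MonoidHom.snd B X).comp f)
      invFun := fun p => p.1.prod p.2
      left_inv := fun f => rfl
      right_inv := fun p => rfl }
  let c : (H →* A × X) ≃ (H →* B × X) :=
    { toFun := fun f => e.toMonoidHom.comp f
      invFun := fun f => e.symm.toMonoidHom.comp f
      left_inv := fun f => MonoidHom.ext fun x => e.symm_apply_apply _
      right_inv := fun f => MonoidHom.ext fun x => e.apply_symm_apply _ }
  have h := Nat.card_congr ((pA.symm.trans c).trans pB)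
  rw [Nat.card_prod, Nat.card_prod] at h
  exact Nat.eq_of_mul_eq_mul_right (Nat.card_pos_iff.2 ⟨⟨1⟩, inferInstance⟩) h

/-- Cancellation of a finite direct factor. -/
theorem cancel {X : Type w} [Group X] [Finite X] (e : A × X ≃* B × X) : Nonempty (A ≃* B) := by
  have hA : ∀ (H : Type u) [Group H] [Finite H], Nat.card (H →* A) = Nat.card (H →* B) := fun H _ _ => hom_eq e H
  have hB : ∀ (H : Type v) [Group H] [Finite H], Nat.card (H →* A) = Nat.card (H →* B) := fun H _ _ => hom_eq e H
  obtain ⟨f⟩ : Nonempty {f : A →* B // Injective f} := (Nat.card_pos_iff.1 (by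
    rw [← card_inj_eq hA _ A rfl]
    exact Nat.card_pos_iff.2 ⟨⟨⟨MonoidHom.id A, injective_id⟩⟩, inferInstance⟩)).1
  obtain ⟨g⟩ : Nonempty {g : B →* A // Injective g} := (Nat.card_pos_iff.1 (by
    rw [card_inj_eq hB _ B rfl]
    exact Nat.card_pos_iff.2 ⟨⟨⟨MonoidHom.id B, injective_id⟩⟩, inferInstance⟩)).1
  have hcard : Nat.card A = Nat.card B :=
    le_antisymm (Nat.card_le_card_of_injective f.1 f.2) (Nat.card_le_card_of_injective g.1 g.2)
  exact ⟨MulEquiv.ofBijective f.1 ((Nat.bijective_iff_injective_and_card _).2 ⟨f.2, hcard⟩)⟩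

end Cancel

section Fitting

/-- A normal endomorphism: it commutes with all inner automorphisms. -/
def IsNormalEnd {A : Type u} [Group A] (f : A →* A) : Prop :=
  ∀ g a : A, f (g * a * g⁻¹) = g * f a * g⁻¹

/-- A group which is not a product of two nontrivial normal subgroups. -/
def Indec (A : Type u) [Group A] : Prop :=
  Nontrivial A ∧ ∀ H K : Subgroup A, H.Normal → K.Normal → H ⊓ K = ⊥ → H ⊔ K = ⊤ → H = ⊥ ∨ K = ⊥

variable {A : Type u} [Group A] [Finite A]

/-- Fitting: bijective or nilpotent. -/
theorem bijective_or_nilpotent (hA : Indec A) {f : A →* A} (hf : IsNormalEnd f) :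
    Bijective f ∨ ∃ k : ℕ, ∀ a, f^[k] a = 1 := by
  obtain ⟨i, j, hij, he⟩ := Finite.exists_ne_map_eq_of_infinite (fun n : ℕ => f^[n])
  wlog hlt : i < j generalizing i j
  · exact this j i hij.symm he.symm (lt_of_le_of_ne (not_lt.1 hlt) hij.symm)
  set d := j - i with hd
  have hper : ∀ t, ∀ n ≥ i, f^[n + t * d] = f^[n] := by
    intro t
    induction t with
    | zero => simp
    | succ t ih =>
      intro n hn
      have h1 : f^[n + d] = f^[n] := by
        rw [show n + d = (n - i) + j by omega, Function.iterate_add, ← show f^[i] = f^[j] from he,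
          ← Function.iterate_add, Nat.sub_add_cancel hn]
      rw [add_one_mul, ← add_assoc, show n + t * d + d = (n + d) + t * d by omega, ih _ (by omega), h1]
  set K := (i + 1) * d with hK
  have hKi : i ≤ K := le_trans (Nat.le_succ i) (Nat.le_mul_of_pos_right _ (by omega))
  have hidem : ∀ a, f^[K] (f^[K] a) = f^[K] a := fun a => by
    rw [← Function.iterate_add_apply]
    conv_lhs => arg 2; rw [show K + K = K + (i + 1) * d from rfl]
    rw [hper _ _ hKi]
  let φ : A →* A := { toFun := f^[K], map_one' := iterate_map_one f K, map_mul' := iterate_map_mul f K }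
  have hφn : IsNormalEnd φ := by
    intro g a
    show f^[K] _ = g * f^[K] a * g⁻¹
    clear_value K
    clear hK hKi hidem φ
    induction K with
    | zero => rfl
    | succ K ih => rw [Function.iterate_succ_apply', ih, hf, Function.iterate_succ_apply']
  have hr : φ.range.Normal := ⟨fun x hx g => by
    obtain ⟨a, rfl⟩ := hx
    exact ⟨g * a * g⁻¹, hφn g a⟩⟩
  have hinf : φ.ker ⊓ φ.range = ⊥ := by
    rw [eq_bot_iff]
    rintro _ ⟨hx, a, rfl⟩
    rw [Subgroup.mem_bot]
    have hx' : φ (φ a) = 1 := hx
    exact (hidem a).symm.trans hx'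
  have hsup : φ.ker ⊔ φ.range = ⊤ := by
    rw [eq_top_iff]
    intro a _
    have h1 : a * (φ a)⁻¹ ∈ φ.ker := by
      rw [MonoidHom.mem_ker, map_mul, map_inv, show φ (φ a) = φ a from hidem a, mul_inv_cancel]
    have := mul_mem (Subgroup.mem_sup_left (T := φ.range) h1) (Subgroup.mem_sup_right ⟨a, rfl⟩)
    rwa [inv_mul_cancel_right] at this
  rcases hA.2 _ _ inferInstance hr hinf hsup with h | h
  · left
    have hinj : Injective φ := (MonoidHom.ker_eq_bot_iff φ).1 h
    have hfi : Injective f := by
      intro a b hab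
      apply hinj
      show f^[K] a = f^[K] b
      obtain ⟨K', hK'⟩ : ∃ K', K = K' + 1 := ⟨K - 1, by have : 0 < K := Nat.mul_pos (by omega) (by omega); omega⟩
      rw [hK', Function.iterate_succ_apply, Function.iterate_succ_apply, hab]
    exact ⟨hfi, Finite.surjective_of_injective hfi⟩
  · right
    refine ⟨K, fun a => ?_⟩
    have : φ a ∈ φ.range := ⟨a, rfl⟩
    rw [h] at this
    exact this

/-- If a pointwise product of two normal endomorphisms is bijective then one of them is. -/
theorem bijective_of_mul (hA : Indec A) {f g s : A →* A} (hf : IsNormalEnd f) (hg : IsNormalEnd g)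
    (hs : IsNormalEnd s) (hsum : ∀ a, f a * g a = s a) (hb : Bijective s) : Bijective f ∨ Bijective g := by
  let u : A ≃* A := MulEquiv.ofBijective s hb
  have hu : ∀ x a, u.symm (x * a * x⁻¹) = x * u.symm a * x⁻¹ := fun x a => by
    apply u.injective
    show u (u.symm _) = s (x * u.symm a * x⁻¹)
    rw [u.apply_symm_apply, hs]
    exact congrArg (fun z => x * z * x⁻¹) (u.apply_symm_apply a).symm
  set f' := f.comp u.symm.toMonoidHom with hf'
  set g' := g.comp u.symm.toMonoidHom with hg'
  have hf'n : IsNormalEnd f' := fun x a => by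
    show f (u.symm _) = x * f (u.symm a) * x⁻¹
    rw [hu, hf]
  have hid : ∀ a, f' a * g' a = a := fun a => (hsum _).trans (u.apply_symm_apply a)
  rcases bijective_or_nilpotent hA hf'n with hb' | ⟨k, hk⟩
  · left
    have := hb'.comp u.bijective
    convert this using 1
    ext a
    show f a = f (u.symm (u a))
    rw [u.symm_apply_apply]
  · right
    have hgi : Injective g' := by
      rw [injective_iff_map_eq_one]
      intro a ha
      have h1 := hid a
      rw [ha, mul_one] at h1
      rw [← hk a, Function.iterate_fixed h1 k]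
    have hgb : Bijective g' := ⟨hgi, Finite.surjective_of_injective hgi⟩
    have := hgb.comp u.bijective
    convert this using 1
    ext a
    show g a = g (u.symm (u a))
    rw [u.symm_apply_apply]

end Fitting

section KRS

/-- An indecomposable direct factor is isomorphic to one of the factors of another decomposition. -/
theorem exists_factor_iso {A : Type u} [Group A] [Finite A] (hA : Indec A) {X : Type w} [Group X]
    {n : ℕ} {B : Fin n → Type v} [∀ j, Group (B j)] [∀ j, Finite (B j)] (hB : ∀ j, Indec (B j))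
    (e : A × X ≃* ((j : Fin n) → B j)) : ∃ j, Nonempty (A ≃* B j) := by
  classical
  let ι : A →* A × X := MonoidHom.inl A X
  let π : A × X →* A := MonoidHom.fst A X
  let R : Finset (Fin n) → (((j : Fin n) → B j) →* ((j : Fin n) → B j)) := fun S =>
    { toFun := fun b j => if j ∈ S then b j else 1
      map_one' := funext fun j => by simp
      map_mul' := fun b c => funext fun j => by
        show (if j ∈ S then b j * c j else 1) = (if j ∈ S then b j else 1) * (if j ∈ S then c j else 1)
        split <;> simp }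
  let f : Finset (Fin n) → (A →* A) := fun S =>
    π.comp (e.symm.toMonoidHom.comp ((R S).comp (e.toMonoidHom.comp ι)))
  have hR : ∀ S (b c : (j : Fin n) → B j), R S (b * c * b⁻¹) = b * R S c * b⁻¹ := fun S b c =>
    funext fun j => by
      show (if j ∈ S then b j * c j * (b j)⁻¹ else 1) = b j * (if j ∈ S then c j else 1) * (b j)⁻¹
      split <;> simp
  have hnormal : ∀ S, IsNormalEnd (f S) := by
    intro S g a
    show π (e.symm (R S (e (ι (g * a * g⁻¹))))) = g * π (e.symm (R S (e (ι a)))) * g⁻¹
    rw [show e (ι (g * a * g⁻¹)) = e (ι g) * e (ι a) * (e (ι g))⁻¹ by simp only [map_mul, map_inv],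
      hR]
    simp only [map_mul, map_inv, e.symm_apply_apply]
    rfl
  have hne : ∀ S, Bijective (f S) → S.Nonempty := by
    intro S hb
    by_contra h
    rw [Finset.not_nonempty_iff_eq_empty] at h
    have := hA.1
    obtain ⟨a, ha⟩ := exists_ne (1 : A)
    refine ha (hb.1 ?_)
    have h1 : ∀ x, f S x = 1 := fun x => by
      show π (e.symm (R S (e (ι x)))) = 1
      rw [show R S (e (ι x)) = 1 from funext fun j => by simp [R, h], map_one, map_one]
    rw [h1, h1]
  have key : ∀ S : Finset (Fin n), Bijective (f S) → ∃ j, Bijective (f {j}) := by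
    intro S
    induction S using Finset.induction_on with
    | empty => intro hb; exact absurd (hne _ hb) (by simp)
    | insert j S hj ih =>
      intro hb
      refine (bijective_of_mul hA (hnormal {j}) (hnormal S) (hnormal (insert j S)) (fun a => ?_) hb).elim
        (fun h => ⟨j, h⟩) ih
      show π (e.symm (R {j} (e (ι a)))) * π (e.symm (R S (e (ι a)))) = π (e.symm (R (insert j S) (e (ι a))))
      rw [← map_mul, ← map_mul]
      congr 2
      funext i
      show (if i ∈ ({j} : Finset (Fin n)) then e (ι a) i else 1) * (if i ∈ S then e (ι a) i else 1) =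
        if i ∈ insert j S then e (ι a) i else 1
      by_cases hi : i = j
      · subst hi; simp [hj]
      · simp [hi]
  have huniv : Bijective (f Finset.univ) := by
    convert bijective_id (α := A) using 1
    funext a
    show π (e.symm (R Finset.univ (e (ι a)))) = a
    rw [show R Finset.univ (e (ι a)) = e (ι a) from funext fun j => by simp [R], e.symm_apply_apply]
    rfl
  obtain ⟨j, hj⟩ := key _ huniv
  refine ⟨j, ?_⟩
  let α : A →* B j := (Pi.evalMonoidHom B j).comp (e.toMonoidHom.comp ι)
  let β : B j →* A := π.comp (e.symm.toMonoidHom.comp (MonoidHom.mulSingle B j))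
  have hβα : ∀ a, β (α a) = f {j} a := by
    intro a
    show π (e.symm (Pi.mulSingle j (e (ι a) j))) = π (e.symm (R {j} (e (ι a))))
    congr 2
    funext i
    show (Pi.mulSingle j (e (ι a) j) : (i : Fin n) → B i) i = if i ∈ ({j} : Finset (Fin n)) then _ else 1
    by_cases hi : i = j
    · subst hi; simp
    · simp [hi]
  have hαinj : Injective α := fun a b h => hj.1 (by rw [← hβα, ← hβα, h])
  have hrn : α.range.Normal := ⟨fun x hx b => by
    obtain ⟨a, rfl⟩ := hx
    set g := e.symm (Pi.mulSingle j b) with hg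
    refine ⟨g.1 * a * g.1⁻¹, ?_⟩
    show e (ι (g.1 * a * g.1⁻¹)) j = b * e (ι a) j * b⁻¹
    have h1 : ι (g.1 * a * g.1⁻¹) = g * ι a * g⁻¹ := Prod.ext rfl (by simp [ι])
    rw [h1, map_mul, map_mul, map_inv, hg, e.apply_symm_apply]
    simp⟩
  have hinf : α.range ⊓ β.ker = ⊥ := by
    rw [eq_bot_iff]
    rintro _ ⟨⟨a, rfl⟩, hx⟩
    have hx' : β (α a) = 1 := hx
    rw [hβα, ← map_one (f {j})] at hx'
    rw [Subgroup.mem_bot, hj.1 hx', map_one]
  have hsup : α.range ⊔ β.ker = ⊤ := by
    rw [eq_top_iff]
    intro b _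
    obtain ⟨a, ha⟩ := hj.2 (β b)
    have h1 : (α a)⁻¹ * b ∈ β.ker := by
      rw [MonoidHom.mem_ker, map_mul, map_inv, hβα, ha, inv_mul_cancel]
    have := mul_mem (Subgroup.mem_sup_left (S := α.range) (T := β.ker) ⟨a, rfl⟩) (Subgroup.mem_sup_right h1)
    rwa [mul_inv_cancel_left] at this
  rcases (hB j).2 _ _ hrn inferInstance hinf hsup with h | h
  · exfalso
    have := hA.1
    obtain ⟨a, ha⟩ := exists_ne (1 : A)
    have h1 : α a ∈ α.range := ⟨a, rfl⟩
    rw [h, Subgroup.mem_bot] at h1
    exact ha (hαinj (h1.trans (map_one α).symm))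
  · rw [h, sup_bot_eq] at hsup
    exact ⟨MulEquiv.ofBijective α ⟨hαinj, MonoidHom.range_eq_top.1 hsup⟩⟩

/-- Split off one coordinate. -/
def piSplit {n : ℕ} (B : Fin (n + 1) → Type v) [∀ j, Group (B j)] (j : Fin (n + 1)) :
    ((i : Fin (n + 1)) → B i) ≃* B j × ((k : Fin n) → B (j.succAbove k)) :=
  { (Fin.insertNthEquiv B j).symm with map_mul' := fun _ _ => rfl }

/-- **Krull–Remak–Schmidt**. -/
theorem krs : ∀ {m n : ℕ} {A : Fin m → Type u} {B : Fin n → Type v} [∀ i, Group (A i)] [∀ j, Group (B j)]
    [∀ i, Finite (A i)] [∀ j, Finite (B j)], (∀ i, Indec (A i)) → (∀ j, Indec (B j)) →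
    (((i : Fin m) → A i) ≃* ((j : Fin n) → B j)) → ∃ σ : Fin m ≃ Fin n, ∀ i, Nonempty (A i ≃* B (σ i)) := by
  intro m
  induction m with
  | zero =>
    intro n A B _ _ _ _ _ hB e
    rcases n with _ | n
    · exact ⟨Equiv.refl _, fun i => i.elim0⟩
    · exfalso
      have := (hB 0).1
      obtain ⟨b, hb⟩ := exists_ne (1 : B 0)
      refine hb ?_
      have h1 : (Pi.mulSingle 0 b : (j : Fin (n + 1)) → B j) = 1 := e.symm.injective (Subsingleton.elim _ _)
      simpa using congrFun h1 0
  | succ m ih =>
    intro n A B _ _ _ _ hA hB e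
    let eA := piSplit A 0
    obtain ⟨j, ⟨φ⟩⟩ := exists_factor_iso (hA 0) hB (eA.symm.trans e)
    rcases n with _ | n
    · exact j.elim0
    let eB := piSplit B j
    let e' : ((k : Fin m) → A ((0 : Fin (m + 1)).succAbove k)) × B j ≃* ((k : Fin n) → B (j.succAbove k)) × B j :=
      ((MulEquiv.prodComm.trans ((φ.symm.prodCongr (MulEquiv.refl _)).trans eA.symm)).trans e).trans
        (eB.trans MulEquiv.prodComm)
    obtain ⟨e''⟩ := cancel e'
    obtain ⟨σ, hσ⟩ := ih (fun k => hA _) (fun k => hB _) e''
    let τ : Fin (m + 1) ≃ Fin (n + 1) :=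
      (finSuccEquiv' 0).trans ((Equiv.optionCongr σ).trans (finSuccEquiv' j).symm)
    refine ⟨τ, fun i => ?_⟩
    rcases Fin.eq_self_or_eq_succAbove 0 i with rfl | ⟨k, rfl⟩
    · rw [show τ 0 = j by simp [τ, finSuccEquiv'_at, finSuccEquiv'_symm_none]]
      exact ⟨φ⟩
    · rw [show τ ((0 : Fin (m + 1)).succAbove k) = j.succAbove (σ k) by
        simp only [τ, Equiv.trans_apply, finSuccEquiv'_succAbove, Equiv.optionCongr_apply, Option.map_some,
          finSuccEquiv'_symm_some]]
      exact hσ k

end KRS

end Cfsg.Agent.H77.Remak
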