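import Mathlib

/-!
A triangle-free strongly regular graph whose valency and second parameter are powers of 3 has
valency 3 (rationality of the eigenvalues, read off from the trace of an idempotent).
-/

set_option autoImplicit false

namespace Cfsg.Agent.H77FO

open Matrix

theorem trace_idem {V : Type*} [Fintype V] [DecidableEq V] (E : Matrix V V ℝ) (h : E * E = E) :
    ∃ n : ℕ, E.trace = (n : ℝ) := by
  have h' : IsIdempotentElem (Matrix.toLin' E) := by
    show Matrix.toLin' E * Matrix.toLin' E = Matrix.toLin' E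
    rw [Module.End.mul_eq_comp, ← Matrix.toLin'_mul, h]
  refine ⟨Module.finrank ℝ (LinearMap.range (Matrix.toLin' E)), ?_⟩
  rw [← (LinearMap.IsIdempotentElem.isProj_range _ h').trace, Matrix.trace_toLin'_eq]

theorem srg_disc_square {V : Type*} [Fintype V] [DecidableEq V] (R : V → V → Prop) [DecidableRel R]
    (k μ : ℕ) (hμ : 1 ≤ μ) (hμk : μ < k) (hk : 3 ≤ k) [Nonempty V]
    (hsym : ∀ a b, R a b → R b a) (hirr : ∀ a, ¬ R a a)
    (hdeg : ∀ a, (Finset.univ.filter (R a)).card = k)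
    (htri : ∀ a b c, R a b → R a c → R b c → False)
    (hmu : ∀ a b, a ≠ b → ¬ R a b → (Finset.univ.filter fun c => R a c ∧ R b c).card = μ) :
    IsSquare (μ * μ + 4 * (k - μ)) := by
  classical
  obtain ⟨A, hA⟩ : ∃ A : Matrix V V ℝ, ∀ a b, A a b = if R a b then 1 else 0 :=
    ⟨Matrix.of fun a b => if R a b then 1 else 0, fun _ _ => rfl⟩
  obtain ⟨J, hJ⟩ : ∃ J : Matrix V V ℝ, ∀ a b, J a b = 1 :=
    ⟨Matrix.of fun _ _ => 1, fun _ _ => rfl⟩
  set v : ℝ := (Fintype.card V : ℝ) with hv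
  have hvpos : 0 < v := by rw [hv]; exact_mod_cast Fintype.card_pos
  have hAA : A * A = (k : ℝ) • (1 : Matrix V V ℝ) + (μ : ℝ) • (J - 1 - A) := by
    ext a b
    have hl : (A * A) a b = ((Finset.univ.filter fun c => R a c ∧ R b c).card : ℝ) := by
      rw [Matrix.mul_apply, ← Finset.sum_boole]
      refine Finset.sum_congr rfl fun c _ => ?_
      by_cases h1 : R a c <;> by_cases h2 : R b c
      · simp [hA, h1, h2, hsym b c h2]
      · have : ¬ R c b := fun h => h2 (hsym c b h)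
        simp [hA, h1, h2, this]
      · simp [hA, h1, h2]
      · simp [hA, h1, h2]
    rw [hl]
    rcases eq_or_ne a b with rfl | hne
    · simp [hA, hJ, hirr a, hdeg a]
    · by_cases hR : R a b
      · have h0 : (Finset.univ.filter fun c => R a c ∧ R b c) = ∅ :=
          Finset.filter_eq_empty_iff.2 fun c _ hc => htri a b c hR hc.1 hc.2
        simp [hA, hJ, hR, hne, h0]
      · simp [hA, hJ, hR, hne, hmu a b hne hR]
  have hAJ : A * J = (k : ℝ) • J := by
    ext a b
    rw [Matrix.mul_apply]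
    simp [hA, hJ, hdeg a]
  have hJA : J * A = (k : ℝ) • J := by
    ext a b
    rw [Matrix.mul_apply]
    have : (Finset.univ.filter fun c => R c b) = Finset.univ.filter (R b) :=
      Finset.filter_congr fun c _ => ⟨fun h => hsym _ _ h, fun h => hsym _ _ h⟩
    simp [hA, hJ, this, hdeg b]
  have hJJ : J * J = v • J := by
    ext a b
    rw [Matrix.mul_apply]
    simp [hJ, hv]
  have hk2 : (k : ℝ) * k = k + μ * (v - 1 - k) := by
    obtain ⟨a⟩ := ‹Nonempty V›
    have h := congrArg (fun M : Matrix V V ℝ => (M * J) a a) hAA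
    simp only [Matrix.mul_assoc, hAJ, Matrix.mul_smul, Matrix.add_mul, Matrix.sub_mul,
      Matrix.smul_mul, Matrix.one_mul, hJJ] at h
    simp [hJ] at h
    linarith
  set dN : ℕ := μ * μ + 4 * (k - μ) with hdN
  have hdR : (dN : ℝ) = μ * μ + 4 * (k - μ) := by
    rw [hdN]; push_cast [Nat.cast_sub hμk.le]; ring
  by_contra hsq
  have hirr' : Irrational (√(dN : ℝ)) := irrational_sqrt_natCast_iff.2 hsq
  set r : ℝ := √(dN : ℝ) with hr
  have hr2 : r * r = dN := Real.mul_self_sqrt (Nat.cast_nonneg _)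
  have hrne : r ≠ 0 := hirr'.ne_zero
  set c : ℝ := (2 * k + μ) / v with hc
  have hcv : c * v = 2 * k + μ := by rw [hc]; field_simp
  let P : Matrix V V ℝ := 1 - v⁻¹ • J
  let F : Matrix V V ℝ := (2 : ℝ) • A + (μ : ℝ) • 1 - c • J
  have hFF : F * F = (dN : ℝ) • P := by
    have e : F * F = (4 : ℝ) • (A * A) + (4 * μ : ℝ) • A + (μ * μ : ℝ) • (1 : Matrix V V ℝ)
        + (c * c * v - 4 * c * k - 2 * c * μ) • J := by
      simp only [F, Matrix.add_mul, Matrix.mul_add, Matrix.sub_mul, Matrix.mul_sub, Matrix.smul_mul,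
        Matrix.mul_smul, Matrix.one_mul, Matrix.mul_one, hAJ, hJA, hJJ, smul_smul]
      module
    have hcoef : (4 : ℝ) * μ + (c * c * v - 4 * c * k - 2 * c * μ) = -(dN * v⁻¹) := by
      rw [hdR, hc]; field_simp; nlinarith [hk2]
    rw [e, hAA]
    calc (4 : ℝ) • ((k : ℝ) • (1 : Matrix V V ℝ) + (μ : ℝ) • (J - 1 - A)) + (4 * μ : ℝ) • A
          + (μ * μ : ℝ) • (1 : Matrix V V ℝ) + (c * c * v - 4 * c * k - 2 * c * μ) • J
        = ((μ : ℝ) * μ + 4 * (k - μ)) • (1 : Matrix V V ℝ)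
          + ((4 : ℝ) * μ + (c * c * v - 4 * c * k - 2 * c * μ)) • J := by module
      _ = (dN : ℝ) • P := by rw [hcoef, ← hdR]; simp only [P]; module
  have hFJ : F * J = 0 := by
    simp only [F, Matrix.add_mul, Matrix.sub_mul, Matrix.smul_mul, Matrix.one_mul, hAJ, hJJ,
      smul_smul, hcv]
    module
  have hJF : J * F = 0 := by
    simp only [F, Matrix.mul_add, Matrix.mul_sub, Matrix.mul_smul, Matrix.mul_one, hJA, hJJ,
      smul_smul, hcv]
    module
  have hFP : F * P = F := by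
    simp only [P, Matrix.mul_sub, Matrix.mul_one, Matrix.mul_smul, hFJ, smul_zero, sub_zero]
  have hPF : P * F = F := by
    simp only [P, Matrix.sub_mul, Matrix.one_mul, Matrix.smul_mul, hJF, smul_zero, sub_zero]
  have hPP : P * P = P := by
    simp only [P, Matrix.sub_mul, Matrix.mul_sub, Matrix.one_mul, Matrix.mul_one, Matrix.smul_mul,
      Matrix.mul_smul, hJJ, smul_smul]
    rw [inv_mul_cancel₀ hvpos.ne']
    module
  obtain ⟨n, hn⟩ := trace_idem ((2 : ℝ)⁻¹ • (P + r⁻¹ • F)) (by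
    simp only [Matrix.smul_mul, Matrix.mul_smul, Matrix.add_mul, Matrix.mul_add, hPP, hFP, hPF, hFF,
      smul_smul]
    have e : r⁻¹ * (dN : ℝ) = r := by rw [← hr2]; field_simp
    rw [e]
    match_scalars <;> field_simp <;> ring)
  have htA : A.trace = 0 := by simp [Matrix.trace, hA, hirr]
  have htJ : J.trace = v := by simp [Matrix.trace, hJ, hv]
  have htP : P.trace = v - 1 := by
    simp only [P, Matrix.trace_sub, Matrix.trace_one, Matrix.trace_smul, htJ, smul_eq_mul]
    rw [inv_mul_cancel₀ hvpos.ne', hv]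
  have htF : F.trace = μ * (v - 1) - 2 * k := by
    simp only [F, Matrix.trace_sub, Matrix.trace_add, Matrix.trace_smul, Matrix.trace_one, htA, htJ,
      smul_eq_mul, hcv, ← hv]
    ring
  rw [Matrix.trace_smul, Matrix.trace_add, Matrix.trace_smul, htP, htF, smul_eq_mul, smul_eq_mul]
    at hn
  set T : ℝ := μ * (v - 1) - 2 * k with hT
  have hTpos : 0 < T := by
    have h3 : (3 : ℝ) ≤ k := by exact_mod_cast hk
    have h1 : (1 : ℝ) ≤ μ := by exact_mod_cast hμ
    rw [hT]; nlinarith [hk2]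
  have hTr : T = r * (2 * n - (v - 1)) := by
    field_simp at hn
    linarith
  apply hirr'
  have hq : (2 * (n : ℝ) - (v - 1)) ≠ 0 := fun h => hTpos.ne' (by rw [hTr, h, mul_zero])
  refine ⟨((μ : ℚ) * ((Fintype.card V : ℚ) - 1) - 2 * k) / (2 * n - ((Fintype.card V : ℚ) - 1)), ?_⟩
  push_cast
  rw [← hv, ← hT, hTr, mul_div_assoc, div_self hq, mul_one]

theorem not_square_three_pow : ∀ c s X : ℕ, X % 3 = 2 → s * s ≠ 3 ^ c * X := by
  have hmod : ∀ s X : ℕ, X % 3 = 2 → s * s ≠ X := by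
    intro s X hX h
    have : s * s % 3 = 2 := by rw [h]; exact hX
    rw [Nat.mul_mod] at this
    have h3 : s % 3 < 3 := Nat.mod_lt _ (by norm_num)
    interval_cases h4 : s % 3 <;> simp at this
  intro c
  induction c using Nat.twoStepInduction with
  | zero => intro s X hX; simpa using hmod s X hX
  | one =>
    intro s X hX h
    obtain ⟨t, rfl⟩ : 3 ∣ s := (Nat.prime_three.dvd_mul.1 ⟨X, by rw [h]; ring⟩).elim id id
    have : 3 * (t * t) = X := by nlinarith
    omega
  | more c ih _ =>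
    intro s X hX h
    obtain ⟨t, rfl⟩ : 3 ∣ s :=
      (Nat.prime_three.dvd_mul.1 ⟨3 ^ (c + 1) * X, by rw [h]; ring⟩).elim id id
    refine ih t X hX ?_
    have : 9 * (t * t) = 9 * (3 ^ c * X) := by
      rw [show (9 : ℕ) * (t * t) = 3 * t * (3 * t) by ring, h]; ring
    omega

theorem three_pow_disc {b c : ℕ} (hcb : c < b)
    (h : IsSquare (3 ^ c * 3 ^ c + 4 * (3 ^ b - 3 ^ c))) : b = 1 ∧ c = 0 := by
  obtain ⟨s, hs⟩ := h
  obtain ⟨d, rfl⟩ : ∃ d, b = c + 1 + d := ⟨b - (c + 1), by omega⟩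
  rcases Nat.eq_zero_or_pos c with rfl | hc
  · refine ⟨?_, rfl⟩
    rcases Nat.eq_zero_or_pos d with rfl | hd
    · rfl
    exfalso
    obtain ⟨e, rfl⟩ : ∃ e, d = e + 1 := ⟨d - 1, by omega⟩
    have h9 : 3 ^ (0 + 1 + (e + 1)) = 9 * 3 ^ e := by ring
    have hpos : 1 ≤ 3 ^ e := Nat.one_le_pow _ _ (by norm_num)
    rw [h9, pow_zero] at hs
    have hm : s * s % 9 = 6 := by omega
    rw [Nat.mul_mod] at hm
    have h3 : s % 9 < 9 := Nat.mod_lt _ (by norm_num)
    interval_cases h4 : s % 9 <;> simp at hm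
  · exfalso
    obtain ⟨c', rfl⟩ : ∃ c', c = c' + 1 := ⟨c - 1, by omega⟩
    have hpos : 1 ≤ 3 ^ d := Nat.one_le_pow _ _ (by norm_num)
    have hge : 1 ≤ 3 ^ (c' + 1 + 0) := Nat.one_le_pow _ _ (by norm_num)
    refine not_square_three_pow (c' + 1) s (3 ^ (c' + 1) + 4 * (3 * 3 ^ d - 1)) ?_ ?_
    · have : 3 ^ (c' + 1) = 3 * 3 ^ c' := by ring
      omega
    · rw [← hs, mul_add, show 3 ^ (c' + 1 + 1 + d) = 3 ^ (c' + 1) * (3 * 3 ^ d) by ring,
        Nat.mul_sub, Nat.mul_sub, Nat.mul_sub, mul_one]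
      ring_nf

end Cfsg.Agent.H77FO
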